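import Cfsg.Agent.Lib.Helper90.Sp.Defs
import Cfsg.Agent.Lib.Helper67.Sp.DL
import Cfsg.Agent.Lib.Helper91.Sp.H1
import Cfsg.Agent.Lib.Helper91.Sp.H3
import Cfsg.Agent.Lib.Helper91.Sp.H4
import Cfsg.Agent.Lib.Helper1.Sp.K1a
import Cfsg.Agent.Lib.Helper67.Sp.K1b
import Cfsg.Agent.Lib.Helper67.Sp.K1c
import Cfsg.Agent.Lib.Helper67.Sp.K1d
import Cfsg.Agent.Lib.Helper95.Sp.K2w
import Cfsg.Agent.Lib.Helper95.Sp.K2x
import Cfsg.Agent.Lib.Helper95.Sp.K2y
import Cfsg.Agent.Lib.Helper2.Sp.SA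
import Cfsg.Agent.Lib.Helper12.Sp.SD
import Cfsg.Agent.Lib.Helper23.Sp.SE1
import Cfsg.Agent.Lib.Helper23.Sp.SE2
import Cfsg.Agent.Lib.Helper23.Sp.SE3
import Cfsg.Agent.Lib.Helper65.Sp.SE4
import Cfsg.Agent.Lib.Helper12.Sp.T0
import Cfsg.Agent.Lib.Helper99.Sp.T1
import Cfsg.Agent.Lib.Helper99.Sp.T2
import Cfsg.Agent.Lib.Helper99.Sp.T3b
import Cfsg.Agent.Lib.Helper65.Sp.T4a
import Cfsg.Agent.Lib.Helper65.Sp.T4b
import Cfsg.Agent.Lib.Helper65.Sp.T5
import Cfsg.Agent.Lib.Helper1.Sp.TS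
import Cfsg.Agent.Lib.Helper63.Sp.W3
import Cfsg.Agent.Lib.Helper95.Sp.Y
import Cfsg.Agent.Lib.Helper1.Sp.Z0
import Cfsg.Agent.Lib.Helper35.Asch.L7a
import Cfsg.Agent.Lib.Helper96.Asch.L0c
import Cfsg.Agent.Lib.Helper60.Asch.G2
import Cfsg.Agent.Lib.Helper12.Asch.K2a
import Cfsg.Agent.Lib.Helper91.Sp.H2

set_option autoImplicit false

/-! # The subgroup structure theorem for the symplectic groups: final assembly (helper90's campaign) -/

namespace Cfsg.Agent.Lib.Helper60.Sp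

open Cfsg Cfsg.Geo Matrix Cfsg.Agent.Lib.Helper13.Asch Cfsg.Agent.Lib.Helper90.Sp
  Cfsg.Agent.Lib.Helper1.Sp Cfsg.Agent.Lib.Helper2.Sp Cfsg.Agent.Lib.Helper12.Sp
  Cfsg.Agent.Lib.Helper23.Sp Cfsg.Agent.Lib.Helper63.Sp Cfsg.Agent.Lib.Helper65.Sp
  Cfsg.Agent.Lib.Helper67.Sp Cfsg.Agent.Lib.Helper91.Sp Cfsg.Agent.Lib.Helper95.Sp
  Cfsg.Agent.Lib.Helper99.Sp
open scoped Kronecker MatrixGroups

variable {ι : Type} [Fintype ι] [DecidableEq ι] {F : Type*} [Field F]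

/-- SE (assembly) -/
theorem sp_field [Fintype F] (hι : 4 ≤ Fintype.card ι) {f : (ι → F) → (ι → F) → F}
    (hf : IsSymplecticForm f) {H : Subgroup (GL ι F)} (hH : FixesForm (matrixSet H) f)
    (hirr : ActsIrreducibly (matrixSet H)) (K : Subalgebra F (Matrix ι ι F))
    (hK : H ≤ subalgebraNormalizer K) (hcomm : ∀ x ∈ K, ∀ y ∈ K, x * y = y * x)
    (hinv : ∀ x ∈ K, x ≠ 0 → ∃ y ∈ K, x * y = 1) (hne : ∃ x ∈ K, ∀ c : F, x ≠ c • 1)
    (hadj : IsAdjointClosedFor f K) : SpCls f H := by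
  obtain ⟨r, K', hr, hK', hHK', hadj'⟩ := prime_subfield_adj hf H K hK hcomm hinv hne hadj
  by_cases hsa : IsSelfAdjointFor f K'
  · exact Or.inr (Or.inr (Or.inr (Or.inr (Or.inr (Or.inr (Or.inr (Or.inl
      ⟨r, K', hr, hK', hsa, sp_field_selfadjoint hι hf hH hirr hr K' hK' hHK' hsa, hHK'⟩)))))))
  · obtain ⟨rfl, hfix⟩ := degree_two_of_not_selfadjoint hf hr K' hK' hadj' hsa
    by_cases hodd : Odd (Fintype.card F)
    · exact Or.inr (Or.inr (Or.inr (Or.inr (Or.inr (Or.inr (Or.inr (Or.inr (Or.inl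
        ⟨K', hodd, hK', hadj', hsa, hHK'⟩))))))))
    · exact SpCls.of_hasQuad hodd
        (hasQuad_of_unitary_field (two_eq_zero_iff.2 hodd) hf hH K' hK' hHK' hadj' hsa hfix)


/-- T3 -/
theorem sp_tensor_two [Fintype F] [Nonempty ι] (hodd : Odd (Fintype.card F))
    {f : (ι → F) → (ι → F) → F} (hf : IsSymplecticForm f) {H : Subgroup (GL ι F)}
    (hH : FixesForm (matrixSet H) f) (hirr : ActsIrreducibly (matrixSet H)) {a : ℕ}
    (e : ι ≃ Fin a × Fin 2) (P : GL ι F) {G₁ : Matrix (Fin a) (Fin a) F}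
    {G₂ : Matrix (Fin 2) (Fin 2) F} (hG : TensGram f e P G₁ G₂) (h1 : IsUnit G₁.det)
    (h2 : IsUnit G₂.det) (_hs1 : G₁ᵀ = -G₁) (hs2 : G₂ᵀ = G₂)
    (hHt : H ≤ tensorProductSubgroup a 2 e P) : SpCls f H :=
  sp_tensor_two_aux hodd hf hH e P hG h1 h2 hs2 hHt
    (fun Z hZ hc ha => sp_comm_dichotomy hf hH hirr Z hZ hc ha)

/-- T (assembly) -/
theorem sp_tensor [Fintype F] [Nonempty ι] {f : (ι → F) → (ι → F) → F} (hf : IsSymplecticForm f)
    {H : Subgroup (GL ι F)} (hH : FixesForm (matrixSet H) f)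
    (hirr : ActsIrreducibly (matrixSet H)) {a b : ℕ} (ha : 2 ≤ a) (hb : 2 ≤ b)
    (e : ι ≃ Fin a × Fin b) (P : GL ι F) (hHt : H ≤ tensorProductSubgroup a b e P)
    (hadj : ∀ X : Matrix (Fin a) (Fin a) F, ∃ Y : Matrix (Fin a) (Fin a) F,
      ∀ u v, f (embL e P X *ᵥ u) v = f u (embL e P Y *ᵥ v)) :
    SpCls f H ∧ (¬ Odd (Fintype.card F) → HasQuad f H) := by
  obtain ⟨G₁, G₂, hG, h1, h2, hs⟩ := tensGram_of_adj hf e P hadj
  have hHt' : H ≤ tensorProductSubgroup b a (e.trans (Equiv.prodComm _ _)) P := by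
    rw [← Cfsg.Agent.Lib.Helper35.Asch.tensor_swap]; exact hHt
  by_cases hodd : Odd (Fintype.card F)
  · refine ⟨?_, fun h => absurd hodd h⟩
    rcases hs with ⟨hs1, hs2⟩ | ⟨hs1, hs2⟩
    · rcases Nat.lt_or_ge 2 b with hb3 | hb2
      · exact sp_class4 hodd hb3 e P hG h1 h2 hs1 hs2 hHt
      · obtain rfl : b = 2 := le_antisymm hb2 hb
        exact sp_tensor_two hodd hf hH hirr e P hG h1 h2 hs1 hs2 hHt
    · rcases Nat.lt_or_ge 2 a with ha3 | ha2
      · exact sp_class4 hodd ha3 _ P (Cfsg.Agent.Lib.Helper65.Sp.TensGram.swap hG) h2 h1 hs2 hs1 hHt'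
      · obtain rfl : a = 2 := le_antisymm ha2 ha
        exact sp_tensor_two hodd hf hH hirr _ P (Cfsg.Agent.Lib.Helper65.Sp.TensGram.swap hG) h2 h1 hs2 hs1 hHt'
  · have h20 : (2 : F) = 0 := two_eq_zero_iff.2 hodd
    have hneg : ∀ {n : ℕ} (M : Matrix (Fin n) (Fin n) F), -M = M := by
      intro n M
      have : M + M = 0 := by rw [← two_smul F M, h20, zero_smul]
      exact neg_eq_of_add_eq_zero_left this
    have hs1 : G₁ᵀ = G₁ := by rcases hs with ⟨h, -⟩ | ⟨h, -⟩ <;> simpa [hneg] using h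
    have hs2 : G₂ᵀ = G₂ := by rcases hs with ⟨-, h⟩ | ⟨-, h⟩ <;> simpa [hneg] using h
    have hd2 := diag_zero_of_irr h20 hH hirr hb e P hG h1 h2 hs2 hHt
    have hd1 := diag_zero_of_irr h20 hH hirr ha _ P (Cfsg.Agent.Lib.Helper65.Sp.TensGram.swap hG) h2 h1 hs1 hHt'
    have hQ := hasQuad_of_alternating_tensor h20 hf hH e P hG h1 h2 hs1 hs2 hd1 hd2 hHt
    exact ⟨SpCls.of_hasQuad hodd hQ, fun _ => hQ⟩

/-- TM (assembly) -/
theorem sp_tensor_main [Fintype F] [Nonempty ι] {f : (ι → F) → (ι → F) → F}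
    (hf : IsSymplecticForm f) {H N : Subgroup (GL ι F)} (hH : FixesForm (matrixSet H) f)
    (hirr : ActsIrreducibly (matrixSet H)) (hNH : N ≤ H) (hN : Nrm H N)
    (hcentre : ∀ z ∈ env N, (∀ a ∈ env N, z * a = a * z) → ∃ c : F, z = c • 1)
    (hns : ¬ N ≤ scalars ι F) (hnt : env N ≠ ⊤) :
    SpCls f H ∧ (¬ Odd (Fintype.card F) → HasQuad f H) := by
  obtain ⟨a, b, e, P, ha, hb, hA, hHt⟩ := tensor_structure_of_normal hirr hN hcentre hns hnt
  refine sp_tensor hf hH hirr ha hb e P hHt ?_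
  intro X
  obtain ⟨k', hk', hk⟩ := env_adjClosed hf.bilinear (fixes_mono hNH hH) _ ((hA _).2 ⟨X, rfl⟩)
  obtain ⟨Y, rfl⟩ := (hA _).1 hk'
  exact ⟨Y, hk⟩

/-! ## G: reduction to the quasi-primitive case -/

/-- G (assembly) -/
theorem sp_qp_or_class [Fintype F] (hι : 4 ≤ Fintype.card ι) {f : (ι → F) → (ι → F) → F}
    (hf : IsSymplecticForm f) {H : Subgroup (GL ι F)} (hH : FixesForm (matrixSet H) f) :
    SpCls f H ∨ (ActsIrreducibly (matrixSet H) ∧ QP H) := by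
  have : Nonempty ι := Fintype.card_pos_iff.1 (by omega)
  by_cases hirr : ActsIrreducibly (matrixSet H)
  · by_cases hc : SpCls f H
    · exact Or.inl hc
    refine Or.inr ⟨hirr, fun N hNH hN => ?_⟩
    by_contra hcon
    push Not at hcon
    obtain ⟨hns, hnt⟩ := hcon
    obtain ⟨hZ, hcomm⟩ := cenv_props hN
    have hadj := cenv_adjClosed hf (fixes_mono hNH hH)
    rcases sp_comm_dichotomy hf hH hirr (cenv N) hZ hcomm hadj with h | hinv
    · exact hc h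
    by_cases hne : ∃ x ∈ cenv N, ∀ c : F, x ≠ c • 1
    · exact hc (sp_field hι hf hH hirr (cenv N) hZ hcomm hinv hne hadj)
    · push Not at hne
      refine hc (sp_tensor_main hf hH hirr hNH hN ?_ hns hnt).1
      intro z hz hza
      refine hne z ⟨hz, ?_⟩
      refine (Subalgebra.mem_centralizer_iff F).2 ?_
      intro a ha
      exact (hza a ha).symm
  · exact Or.inl (sp_reducible hf hH hirr)


/-- H5 (assembly) -/
theorem sp_c6 [Fintype F] (hι : 2 ≤ Fintype.card ι) {f : (ι → F) → (ι → F) → F}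
    (hf : IsSymplecticForm f) {H N : Subgroup (GL ι F)} (hH : FixesForm (matrixSet H) f)
    (hQP : QP H) (hN : MinNormal H N) (henv : env N = ⊤) (hab : ⁅N, N⁆ ≤ scalars ι F) :
    SpCls f H := by
  have : Nonempty ι := Fintype.card_pos_iff.1 (by omega)
  obtain ⟨h2, hst, hcen, hcomm, hsc, k, hk, hcard⟩ := extraspecial_structure hι hf hH hQP hN henv hab
  have hNf := fixes_mono hN.le hH
  rcases prime_card_or_bot_ne_top (F := F) with hp | hbot
  · refine Or.inr (Or.inr (Or.inr (Or.inr (Or.inr (Or.inl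
      ⟨N, Fintype.card F, k, hst, Cfsg.Agent.Lib.Helper96.Asch.absIrr_of_env_top henv, le_similarityGroup hNf, hp, ?_, rfl,
        hcard, hcen, minus_type h2 hf hNf henv hcomm hk, hk, ?_⟩)))))
    · by_contra hodd
      exact h2 (two_eq_zero_iff.2 hodd)
    · intro h hh
      rw [subgroupNormalizer, Subgroup.mem_normalizer_iff]
      intro x
      constructor
      · intro hx
        exact hN.nrm h hh x hx
      · intro hx
        have := hN.nrm h⁻¹ (H.inv_mem hh) _ hx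
        simpa [mul_assoc] using this
  · obtain ⟨σ, hσ1, hσ⟩ := exists_frobenius (F := F)
    have hchar : (Nat.card N : F) ≠ 0 := by
      rw [hcard]
      push_cast
      exact pow_ne_zero _ h2
    obtain ⟨C, hC⟩ := exists_twist N hcomm henv hchar σ (by
      intro c hc
      rcases hsc c hc with h | h
      · rw [h, map_one]
      · rw [h, hσ1])
    obtain ⟨F₁, r, P, ζ, h⟩ := sp_subfield hf.bilinear hf.nondegenerate H N hN.nrm henv hNf ⊥ hbot
      (realisable_of_twist henv σ C hC ⊥ hσ)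
    exact Or.inr (Or.inr (Or.inr (Or.inr (Or.inl ⟨F₁, r, P, ζ, h⟩))))


/-- K1 (assembly) -/
theorem sp_simple [Fintype F] (hι : 2 ≤ Fintype.card ι) {f : (ι → F) → (ι → F) → F}
    (hf : IsSymplecticForm f) {H N : Subgroup (GL ι F)} (hH : FixesForm (matrixSet H) f)
    (hQP : QP H) (h : MinNormal H N) (hperf : ¬ ⁅N, N⁆ ≤ scalars ι F)
    (hsimple : ∀ L : Subgroup (GL ι F), H ⊓ scalars ι F ≤ L → L ≤ N → Nrm N L →
      L = H ⊓ scalars ι F ∨ L = N) :
    SpCls f H ∨ InSymplecticResidualClass H := by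
  obtain ⟨hnrm, hle, henv, hcore⟩ := residual_core hQP h hperf hsimple
  have hPf := fixes_mono hle hH
  by_cases hreal : ∃ F₀ : Subfield F, F₀ ≠ ⊤ ∧ RealisableOver F₀ (matrixSet ⁅N, N⁆)
  · obtain ⟨F₀, hF₀, hr⟩ := hreal
    obtain ⟨F₁, r, P, ζ, h⟩ := sp_subfield hf.bilinear hf.nondegenerate H _ hnrm henv hPf F₀ hF₀ hr
    exact Or.inl (Or.inr (Or.inr (Or.inr (Or.inr (Or.inl ⟨F₁, r, P, ζ, h⟩)))))
  by_cases hquad : ∃ Q : (ι → F) → F, IsNondegenerateQuadraticForm Q ∧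
      FixesQuadForm (matrixSet ⁅N, N⁆) Q
  · obtain ⟨Q, hQ, hfQ⟩ := hquad
    obtain ⟨h2, hq⟩ := quad_cases hι hf henv hPf Q hQ hfQ
    exact Or.inl (SpCls.of_hasQuad (two_eq_zero_iff.1 h2)
      (hasQuad_of_normal h2 hι hf hH hnrm (Cfsg.Agent.Lib.Helper96.Asch.absIrr_of_env_top henv).1 hq))
  refine Or.inr ⟨⁅N, N⁆, hcore ?_, hquad, ?_⟩
  · intro F₀ hF₀ hr
    exact hreal ⟨F₀, hF₀, hr⟩
  · rintro ⟨σ, u, hu, hfu⟩
    exact hreal (realisable_of_bilinear_unitary henv hf.bilinear hf.nondegenerate hPf σ u hu hfu)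


/-- K2 (assembly) -/
theorem sp_components [Fintype F] (hι : 2 ≤ Fintype.card ι) {f : (ι → F) → (ι → F) → F}
    (hf : IsSymplecticForm f) {H : Subgroup (GL ι F)} (hH : FixesForm (matrixSet H) f) (hQP : QP H)
    {t : ℕ} (ht : 2 ≤ t) (P : Fin t → Subgroup (GL ι F)) (hPH : ∀ i, P i ≤ H)
    (hcomm : ∀ i j, i ≠ j → ∀ x ∈ P i, ∀ y ∈ P j, x * y = y * x)
    (hperm : ∀ h ∈ H, ∃ σ : Equiv.Perm (Fin t), ∀ i,
      (P i).map (MulAut.conj h).toMonoidHom = P (σ i))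
    (htrans : ∀ i j, ∃ h ∈ H, (P i).map (MulAut.conj h).toMonoidHom = P j)
    (hns : ∀ i, ¬ P i ≤ scalars ι F) (hperf : ∀ i, ⁅P i, P i⁆ = P i) : SpCls f H := by
  have : Nonempty ι := Fintype.card_pos_iff.1 (by omega)
  have i0 : Fin t := ⟨0, by omega⟩
  by_cases hodd : Odd (Fintype.card F)
  · have h2 : (2 : F) ≠ 0 := fun h => (two_eq_zero_iff.1 h) hodd
    obtain ⟨m, e, B, hA⟩ := tensor_structure_of_family hQP ht P hPH hcomm hperm htrans hns
    have key : ∀ (h : GL ι F) (i j : Fin t), (P i).map (MulAut.conj h).toMonoidHom = P j →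
        ∀ X, ∃ Y, (h : Matrix ι ι F) * embT e B i X * ((h⁻¹ : GL ι F) : Matrix ι ι F)
          = embT e B j Y := by
      intro h i j hij X
      have h1 := conj_mem_env h ((hA i _).2 ⟨X, rfl⟩)
      rw [hij] at h1
      exact (hA j _).1 h1
    obtain ⟨hto, B', f₁, hf₁, hstr, hle⟩ := sp_tensor_power h2 hf hH (by omega) e B
      (fun h hh => by
        obtain ⟨σ, hσ⟩ := hperm h hh
        exact ⟨σ, fun i X => key h i (σ i) (hσ i) X⟩)
      (fun i j => by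
        obtain ⟨h, hh, hij⟩ := htrans i j
        exact ⟨h, hh, key h i j hij⟩)
      (fun i X => by
        obtain ⟨k', hk', hk⟩ := env_adjClosed hf.bilinear (fixes_mono (hPH i) hH) _
          ((hA i _).2 ⟨X, rfl⟩)
        obtain ⟨Y, rfl⟩ := (hA i _).1 hk'
        exact ⟨Y, hk⟩)
    refine Or.inr (Or.inr (Or.inr (Or.inr (Or.inr (Or.inr (Or.inr (Or.inr (Or.inr (Or.inr
      ⟨m, t, e, B', f₁, hodd, hto, ?_, ?_, hf₁, hstr, hle⟩)))))))))
    · rcases hto with ⟨s, hs⟩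
      omega
    · rintro ⟨hq, rfl⟩
      have hbot := perfect_GL2_F3 hq e B i0 (P i0) (fun x hx => (hA i0 _).1
        (Algebra.subset_adjoin ⟨x, hx, rfl⟩)) (hperf i0)
      exact hns i0 (hbot ▸ bot_le)
  · have h2 : (2 : F) = 0 := two_eq_zero_iff.2 hodd
    obtain ⟨henv, hnrm, hle, hall⟩ := family_props hQP ht P hPH hcomm hperm hns
    obtain ⟨h1, h3, h4⟩ := hall i0
    have hirr := (Cfsg.Agent.Lib.Helper96.Asch.absIrr_of_env_top henv).1
    have hq := (sp_tensor_main hf (fixes_mono hle hH) hirr (le_iSup P i0) h1 h3 (hns i0) h4).2 hodd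
    exact SpCls.of_hasQuad hodd (hasQuad_of_normal h2 hι hf hH hnrm hirr hq)

/-! ## main theorem -/

/-- M (assembly) -/
theorem sp_main [Fintype F] (hι : 4 ≤ Fintype.card ι) {f : (ι → F) → (ι → F) → F}
    (hf : IsSymplecticForm f) (H : Subgroup (GL ι F)) (hH : FixesForm (matrixSet H) f) :
    SpCls f H ∨ InSymplecticResidualClass H := by
  rcases sp_qp_or_class hι hf hH with h | ⟨hirr, hQP⟩
  · exact Or.inl h
  have hι2 : 2 ≤ Fintype.card ι := by omega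
  obtain ⟨N, hN⟩ := Cfsg.Agent.Lib.Helper60.Asch.exists_minNormal H (not_scalar_of_irr hι2 hirr)
  have henv : env N = ⊤ := (hQP N hN.le hN.nrm).resolve_left hN.not_sc
  by_cases hab : ⁅N, N⁆ ≤ scalars ι F
  · exact Or.inl (sp_c6 hι2 hf hH hQP hN henv hab)
  · by_cases hs : ∀ L : Subgroup (GL ι F), H ⊓ scalars ι F ≤ L → L ≤ N → Nrm N L →
      L = H ⊓ scalars ι F ∨ L = N
    · exact sp_simple hι2 hf hH hQP hN hab hs
    · obtain ⟨t, P, ht, h1, h2, h3, h4, h5, h6⟩ := Cfsg.Agent.Lib.Helper12.Asch.exists_family hN hab hs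
      exact Or.inl (sp_components hι2 hf hH hQP ht P h1 h2 h3 h4 h5 h6)


theorem s5662 [Fintype F] (m : ℕ) (hm : 2 ≤ m) (H : Subgroup (GL (Fin m ⊕ Fin m) F))
    (hH : H ≤ spGL m F) :
    (∃ M : Subgroup (GL (Fin m ⊕ Fin m) F), InSymplecticClass m F M ∧ H ≤ M) ∨
      InSymplecticResidualClass H := by
  rcases sp_main (by simp; omega) (sympForm_isSymplectic m) H (fixes_of_le_spGL hH) with h | h
  · exact Or.inl (SpCls.inClass hH h)
  · exact Or.inr h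


end Cfsg.Agent.Lib.Helper60.Sp
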